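import Cfsg.Agent.H576.Ext.SemiL
import Cfsg.Agent.H464.ExtSemi

/-!
# Harish-Chandra induction with a factor on `Wᗮ / W` (S4891, R5, helper70)

* `cl_semi` : values of class functions and semilinear bijections;
* `qres F W g` : the automorphism of `Wᗮ / W` induced by `g`;
* `qt F c g W` : the value of the class function `c` at it;
* `hc_semi_q` : semisimilarities act on `F.hc c (qt F c')`.
-/

set_option autoImplicit false

open scoped ComplexConjugate
open Cfsg

namespace Cfsg.Agent.H70.OC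

open Cfsg.Agent.H477.HC Cfsg.Agent.H53.HC Cfsg.Agent.Characters Cfsg.Agent.OddOrderCharacters.Clifford Module
  Cfsg.Agent.H477.HC.CForm MulAction Cfsg.Agent.H576.Ext

universe u v w

section Semi

variable {K : Type u} [Field K] {n : ℕ} {W : Type v} [AddCommGroup W] [Module K W] {W' : Type w} [AddCommGroup W']
  [Module K W']

theorem fmap_class {c : GL (Fin n) K → ℂ} (hc : IsClassFunction _ c) (τ : K →+* K) : IsClassFunction _ (fmap τ c) :=
  fun x y => by
    change c (Matrix.GeneralLinearGroup.map τ (y * x * y⁻¹)) = c (Matrix.GeneralLinearGroup.map τ x)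
    rw [map_mul, map_mul, map_inv]
    exact hc _ _

/-- the image of a basis under a semilinear bijection -/
noncomputable def sbasis (τ : K ≃+* K) (s : W ≃+ W') (hs : ∀ (a : K) (v : W), s (a • v) = τ a • s v)
    (b : Basis (Fin n) K W) : Basis (Fin n) K W' :=
  Basis.ofEquivFun
    { toFun := fun v i => τ (b.equivFun (s.symm v) i)
      invFun := fun x => s (b.equivFun.symm fun i => τ.symm (x i))
      map_add' := fun x y => by
        funext i
        simp only [map_add, Pi.add_apply]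
      map_smul' := fun a x => by
        funext i
        have h : s.symm (a • x) = τ.symm a • s.symm x := by
          apply s.injective
          rw [s.apply_symm_apply, hs, τ.apply_symm_apply, s.apply_symm_apply]
        rw [h, map_smul, Pi.smul_apply, smul_eq_mul, map_mul, τ.apply_symm_apply]
        rfl
      left_inv := fun v => by
        simp only [τ.symm_apply_apply]
        rw [LinearEquiv.symm_apply_apply, s.apply_symm_apply]
      right_inv := fun x => by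
        funext i
        simp only [s.symm_apply_apply, LinearEquiv.apply_symm_apply, τ.apply_symm_apply] }

theorem sbasis_apply (τ : K ≃+* K) (s : W ≃+ W') (hs : ∀ (a : K) (v : W), s (a • v) = τ a • s v)
    (b : Basis (Fin n) K W) (i : Fin n) : sbasis τ s hs b i = s (b i) := by
  unfold sbasis
  rw [Basis.coe_ofEquivFun]
  change s (b.equivFun.symm fun j => τ.symm ((Pi.single i (1 : K) : Fin n → K) j)) = s (b i)
  congr 1
  have h : (fun j => τ.symm ((Pi.single i (1 : K) : Fin n → K) j)) = Pi.single i (1 : K) := by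
    funext j
    by_cases hj : j = i
    · subst hj; simp
    · simp [Pi.single_eq_of_ne hj]
  rw [h, Basis.equivFun_symm_single]

theorem sbasis_repr (τ : K ≃+* K) (s : W ≃+ W') (hs : ∀ (a : K) (v : W), s (a • v) = τ a • s v)
    (b : Basis (Fin n) K W) (v : W) (i : Fin n) : (sbasis τ s hs b).repr (s v) i = τ (b.repr v i) := by
  rw [← Basis.equivFun_apply]
  unfold sbasis
  rw [Basis.equivFun_ofEquivFun]
  change τ (b.equivFun (s.symm (s v)) i) = _
  rw [s.symm_apply_apply, Basis.equivFun_apply]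

/-- **class functions and semilinear bijections** -/
theorem cl_semi {c : GL (Fin n) K → ℂ} (hc : IsClassFunction _ c) (τ : K ≃+* K) (s : W ≃+ W')
    (hs : ∀ (a : K) (v : W), s (a • v) = τ a • s v) (f : W ≃ₗ[K] W) (f' : W' ≃ₗ[K] W')
    (h : ∀ v, f' (s v) = s (f v)) : cl c f' = cl (fmap (τ : K →+* K) c) f := by
  classical
  by_cases hb : Nonempty (Basis (Fin n) K W)
  · obtain ⟨b⟩ := hb
    rw [cl_eq hc (sbasis τ s hs b), cl_eq (fmap_class hc _) b]
    change _ = c (Matrix.GeneralLinearGroup.map (τ : K →+* K) (glE b f))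
    congr 1
    ext i j
    rw [coe_glE, LinearMap.toMatrix_apply]
    change _ = τ ((glE b f : Matrix (Fin n) (Fin n) K) i j)
    rw [coe_glE, LinearMap.toMatrix_apply, sbasis_apply]
    change (sbasis τ s hs b).repr (f' (s (b j))) i = _
    rw [h, sbasis_repr]
    rfl
  · have hb' : ¬ Nonempty (Basis (Fin n) K W') := by
      rintro ⟨b⟩
      refine hb ⟨sbasis τ.symm s.symm (fun a v => ?_) b⟩
      apply s.injective
      rw [s.apply_symm_apply, hs, τ.apply_symm_apply, s.apply_symm_apply]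
    unfold cl
    rw [dif_neg hb, dif_neg hb']

end Semi

section Q

variable {K : Type u} [Field K] {V : Type v} [AddCommGroup V] [Module K V] (F : CForm K V)

/-- `W` inside `Wᗮ` -/
abbrev inP (W : Submodule K V) : Submodule K (F.perp W) := W.comap (F.perp W).subtype

/-- `Wᗮ / W` -/
abbrev QQ (W : Submodule K V) : Type v := F.perp W ⧸ inP F W

theorem perp_map {W : Submodule K V} {g : F.iso} (h : W.map (F.iso.subtype g : V →ₗ[K] V) = W) :
    (F.perp W).map (F.iso.subtype g : V →ₗ[K] V) = F.perp W := by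
  have key : ∀ x : F.iso, W.map (F.iso.subtype x : V →ₗ[K] V) = W → ∀ v ∈ F.perp W, (x : V ≃ₗ[K] V) v ∈ F.perp W := by
    intro x hx v hv w hw
    rw [← hx] at hw
    obtain ⟨w', hw', rfl⟩ := hw
    exact (F.iso_B x v w').trans (hv w' hw')
  apply le_antisymm
  · rintro _ ⟨v, hv, rfl⟩
    exact key g h v hv
  · intro v hv
    refine ⟨((g⁻¹ : F.iso) : V ≃ₗ[K] V) v, key g⁻¹ ?_ v hv, (g : V ≃ₗ[K] V).apply_symm_apply v⟩
    exact (stabW F.iso.subtype W).inv_mem h

theorem inP_map {W : Submodule K V} {g : F.iso} (h : W.map (F.iso.subtype g : V →ₗ[K] V) = W) :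
    (inP F W).map ((res (F.iso.subtype g) (F.perp W) (perp_map F h) : F.perp W ≃ₗ[K] F.perp W) :
      F.perp W →ₗ[K] F.perp W) = inP F W := by
  apply le_antisymm
  · rintro _ ⟨v, hv, rfl⟩
    change (g : V ≃ₗ[K] V) v ∈ W
    have h1 : (g : V ≃ₗ[K] V) v ∈ W.map (F.iso.subtype g : V →ₗ[K] V) := ⟨v, hv, rfl⟩
    exact h.le h1
  · intro v hv
    obtain ⟨w, hw, hwv⟩ := h.ge (show (v : V) ∈ W from hv)
    have hw' : w ∈ F.perp W := by
      obtain ⟨u, hu, huv⟩ := (perp_map F h).ge v.2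
      have : u = w := (F.iso.subtype g).injective (huv.trans hwv.symm)
      rw [← this]
      exact hu
    exact ⟨⟨w, hw'⟩, hw, Subtype.ext hwv⟩

/-- the automorphism of `Wᗮ / W` -/
noncomputable def qres (W : Submodule K V) (g : F.iso) (h : W.map (F.iso.subtype g : V →ₗ[K] V) = W) :
    QQ F W ≃ₗ[K] QQ F W :=
  Submodule.Quotient.equiv (inP F W) (inP F W) (res (F.iso.subtype g) (F.perp W) (perp_map F h)) (inP_map F h)

theorem perp_apply {W : Submodule K V} {g : F.iso} (h : W.map (F.iso.subtype g : V →ₗ[K] V) = W) (v : F.perp W) :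
    (g : V ≃ₗ[K] V) v ∈ F.perp W := by
  have h1 := perp_map F h
  have : (g : V ≃ₗ[K] V) v ∈ (F.perp W).map (F.iso.subtype g : V →ₗ[K] V) := ⟨v, v.2, rfl⟩
  rwa [h1] at this

theorem qres_mk {W : Submodule K V} {g : F.iso} (h : W.map (F.iso.subtype g : V →ₗ[K] V) = W) (v : F.perp W) :
    qres F W g h (Submodule.Quotient.mk v) = Submodule.Quotient.mk ⟨(g : V ≃ₗ[K] V) v, perp_apply F h v⟩ := rfl

open Classical in
/-- the value of the class function `c` at the automorphism of `Wᗮ / W` induced by `g` -/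
noncomputable def qt {n : ℕ} (c : GL (Fin n) K → ℂ) (g : F.iso) (W : Submodule K V) : ℂ :=
  if h : W.map (F.iso.subtype g : V →ₗ[K] V) = W then cl c (qres F W g h) else 0

theorem qt_of {n : ℕ} (c : GL (Fin n) K → ℂ) {g : F.iso} {W : Submodule K V}
    (h : W.map (F.iso.subtype g : V →ₗ[K] V) = W) : qt F c g W = cl c (qres F W g h) := by
  classical
  unfold qt
  rw [dif_pos h]

theorem smap_map (τ : K ≃+* K) (γ : V ≃+ V) (hγ : ∀ (a : K) (v : V), γ (a • v) = τ a • γ v) {g g' : F.iso}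
    (h : ∀ v, (g' : V ≃ₗ[K] V) (γ v) = γ ((g : V ≃ₗ[K] V) v)) (W : Submodule K V) :
    (smap τ γ hγ W).map (F.iso.subtype g' : V →ₗ[K] V) = smap τ γ hγ (W.map (F.iso.subtype g : V →ₗ[K] V)) := by
  ext v
  constructor
  · rintro ⟨_, ⟨w, hw, rfl⟩, rfl⟩
    exact ⟨(g : V ≃ₗ[K] V) w, ⟨w, hw, rfl⟩, (h w).symm⟩
  · rintro ⟨_, ⟨w, hw, rfl⟩, rfl⟩
    exact ⟨γ w, ⟨w, hw, rfl⟩, h w⟩

theorem smap_inv (τ : K ≃+* K) (γ : V ≃+ V) (hγ : ∀ (a : K) (v : V), γ (a • v) = τ a • γ v) {g g' : F.iso}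
    (h : ∀ v, (g' : V ≃ₗ[K] V) (γ v) = γ ((g : V ≃ₗ[K] V) v)) (W : Submodule K V) :
    (smap τ γ hγ W).map (F.iso.subtype g' : V →ₗ[K] V) = smap τ γ hγ W ↔
      W.map (F.iso.subtype g : V →ₗ[K] V) = W := by
  rw [smap_map F τ γ hγ h]
  exact (smap_injective τ γ hγ).eq_iff

theorem mem_perp_smap (τ : K ≃+* K) (γ : V ≃+ V) (hγ : ∀ (a : K) (v : V), γ (a • v) = τ a • γ v)
    (hB : ∀ v w, F.B (γ v) (γ w) = 0 ↔ F.B v w = 0) (W : Submodule K V) (v : V) :
    γ v ∈ F.perp (smap τ γ hγ W) ↔ v ∈ F.perp W := by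
  constructor
  · intro h w hw
    exact (hB v w).1 (h _ ⟨w, hw, rfl⟩)
  · rintro h _ ⟨w, hw, rfl⟩
    exact (hB v w).2 (h w hw)

/-- the semilinear bijection `Wᗮ → (γ W)ᗮ` -/
def sperp (τ : K ≃+* K) (γ : V ≃+ V) (hγ : ∀ (a : K) (v : V), γ (a • v) = τ a • γ v)
    (hB : ∀ v w, F.B (γ v) (γ w) = 0 ↔ F.B v w = 0) (W : Submodule K V) :
    F.perp W ≃+ F.perp (smap τ γ hγ W) where
  toFun v := ⟨γ v, (mem_perp_smap F τ γ hγ hB W v).2 v.2⟩
  invFun v := ⟨γ.symm v, (mem_perp_smap F τ γ hγ hB W _).1 (by rw [γ.apply_symm_apply]; exact v.2)⟩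
  left_inv v := Subtype.ext (γ.symm_apply_apply _)
  right_inv v := Subtype.ext (γ.apply_symm_apply _)
  map_add' v w := Subtype.ext (map_add γ _ _)

/-- the semilinear bijection `Wᗮ / W → (γ W)ᗮ / γ W` -/
noncomputable def squot (τ : K ≃+* K) (γ : V ≃+ V) (hγ : ∀ (a : K) (v : V), γ (a • v) = τ a • γ v)
    (hB : ∀ v w, F.B (γ v) (γ w) = 0 ↔ F.B v w = 0) (W : Submodule K V) :
    QQ F W ≃+ QQ F (smap τ γ hγ W) :=
  QuotientAddGroup.congr (inP F W).toAddSubgroup (inP F (smap τ γ hγ W)).toAddSubgroup (sperp F τ γ hγ hB W) (by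
    ext v
    constructor
    · rintro ⟨x, hx, rfl⟩
      exact ⟨(x : V), hx, rfl⟩
    · rintro ⟨x, hx, hxv⟩
      refine ⟨⟨x, ?_⟩, hx, Subtype.ext hxv⟩
      rw [← mem_perp_smap F τ γ hγ hB W, hxv]
      exact v.2)

theorem squot_mk (τ : K ≃+* K) (γ : V ≃+ V) (hγ : ∀ (a : K) (v : V), γ (a • v) = τ a • γ v)
    (hB : ∀ v w, F.B (γ v) (γ w) = 0 ↔ F.B v w = 0) (W : Submodule K V) (v : F.perp W) :
    squot F τ γ hγ hB W (Submodule.Quotient.mk v) = Submodule.Quotient.mk (sperp F τ γ hγ hB W v) := rfl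

theorem qt_semi {n : ℕ} {c : GL (Fin n) K → ℂ} (hc : IsClassFunction _ c) (τ : K ≃+* K) (γ : V ≃+ V)
    (hγ : ∀ (a : K) (v : V), γ (a • v) = τ a • γ v)
    (hB : ∀ v w, F.B (γ v) (γ w) = 0 ↔ F.B v w = 0) {g g' : F.iso}
    (h : ∀ v, (g' : V ≃ₗ[K] V) (γ v) = γ ((g : V ≃ₗ[K] V) v)) (W : Submodule K V) :
    qt F c g' (smap τ γ hγ W) = qt F (fmap (τ : K →+* K) c) g W := by
  classical
  by_cases h1 : W.map (F.iso.subtype g : V →ₗ[K] V) = W
  · have h1' := (smap_inv F τ γ hγ h W).2 h1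
    rw [qt_of F c h1', qt_of F _ h1]
    refine cl_semi hc τ (squot F τ γ hγ hB W) (fun a v => ?_) _ _ fun v => ?_
    · obtain ⟨v, rfl⟩ := Submodule.Quotient.mk_surjective _ v
      rw [← Submodule.Quotient.mk_smul, squot_mk, squot_mk, ← Submodule.Quotient.mk_smul]
      congr 1
      exact Subtype.ext (hγ a v)
    · obtain ⟨v, rfl⟩ := Submodule.Quotient.mk_surjective _ v
      rw [squot_mk, qres_mk, qres_mk, squot_mk]
      congr 1
      exact Subtype.ext (h v)
  · have h1' := fun h2 => h1 ((smap_inv F τ γ hγ h W).1 h2)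
    unfold qt
    rw [dif_neg h1, dif_neg h1']

theorem flagTerm_semi [FiniteDimensional K V] {k : ℕ} {c : GL (Fin k) K → ℂ}
    (hc : IsClassFunction _ c) (τ : K ≃+* K) (γ : V ≃+ V) (hγ : ∀ (a : K) (v : V), γ (a • v) = τ a • γ v)
    {g g' : F.iso} (h : ∀ v, (g' : V ≃ₗ[K] V) (γ v) = γ ((g : V ≃ₗ[K] V) v)) (W : Submodule K V) :
    flagTerm F.iso.subtype c g' (smap τ γ hγ W) = flagTerm F.iso.subtype (fmap (τ : K →+* K) c) g W := by
  classical
  by_cases h1 : W.map (F.iso.subtype g : V →ₗ[K] V) = W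
  · have h1' := (smap_inv F τ γ hγ h W).2 h1
    rw [flagTerm_of F.iso.subtype _ h1', flagTerm_of F.iso.subtype _ h1]
    let s : W ≃+ smap τ γ hγ W :=
      { toFun := fun w => ⟨γ w, w, w.2, rfl⟩
        invFun := fun v => ⟨γ.symm v, (mem_smap (τ := τ) (hγ := hγ)).1 (by rw [γ.apply_symm_apply]; exact v.2)⟩
        left_inv := fun v => Subtype.ext (γ.symm_apply_apply _)
        right_inv := fun v => Subtype.ext (γ.apply_symm_apply _)
        map_add' := fun v w => Subtype.ext (map_add γ _ _) }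
    exact cl_semi hc τ s (fun a v => Subtype.ext (hγ a v)) _ _ fun v => Subtype.ext (h v)
  · have h1' := fun h2 => h1 ((smap_inv F τ γ hγ h W).1 h2)
    unfold flagTerm
    rw [dif_neg h1, dif_neg h1']

/-- **semisimilarities** -/
theorem hc_semi_q [Finite K] [FiniteDimensional K V] [Finite V] {k n : ℕ} [Fintype (F.Om k)] {c : GL (Fin k) K → ℂ}
    (hc : IsClassFunction _ c) {c' : GL (Fin n) K → ℂ} (hc' : IsClassFunction _ c')
    (τ : K ≃+* K) (γ : V ≃+ V) (hγ : ∀ (a : K) (v : V), γ (a • v) = τ a • γ v)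
    (hB : ∀ v w, F.B (γ v) (γ w) = 0 ↔ F.B v w = 0) (hQ : ∀ v, F.Q (γ v) = 0 ↔ F.Q v = 0) (g g' : F.iso)
    (h : ∀ v, (g' : V ≃ₗ[K] V) (γ v) = γ ((g : V ≃ₗ[K] V) v)) :
    F.hc c (qt F c') g' = F.hc (fmap (τ : K →+* K) c) (qt F (fmap (τ : K →+* K) c')) g := by
  classical
  have hmem : ∀ W ∈ F.Om k, smap τ γ hγ W ∈ F.Om k := by
    rintro W ⟨⟨h1, h2⟩, h3⟩
    refine ⟨⟨?_, ?_⟩, by rw [finrank_smap, h3]⟩
    · rintro _ ⟨w, hw, rfl⟩
      exact (hQ w).2 (h1 w hw)
    · rintro _ ⟨w, hw, rfl⟩ _ ⟨w', hw', rfl⟩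
      exact (hB w w').2 (h2 w hw w' hw')
  let e : F.Om k → F.Om k := fun W => ⟨smap τ γ hγ W.1, hmem W.1 W.2⟩
  have he : Function.Bijective e := by
    rw [← Finite.injective_iff_bijective]
    intro W W' hW
    exact Subtype.ext (smap_injective τ γ hγ (congrArg Subtype.val hW))
  unfold CForm.hc
  rw [← (Equiv.ofBijective e he).sum_comp]
  refine Finset.sum_congr rfl fun W _ => ?_
  change flagTerm F.iso.subtype c g' (smap τ γ hγ W.1) * qt F c' g' (smap τ γ hγ W.1) = _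
  rw [flagTerm_semi F hc τ γ hγ h, qt_semi F hc' τ γ hγ hB h]

theorem fmap_refl {k : ℕ} (c : GL (Fin k) K → ℂ) : fmap ((RingEquiv.refl K : K ≃+* K) : K →+* K) c = c := by
  funext A
  change c (Matrix.GeneralLinearGroup.map _ A) = c A
  congr 1

/-- conjugation -/
theorem qt_conj {n : ℕ} {c : GL (Fin n) K → ℂ} (hc : IsClassFunction _ c) (x g : F.iso) (W : Submodule K V) :
    qt F c (x * g * x⁻¹) (W.map (F.iso.subtype x : V →ₗ[K] V)) = qt F c g W := by
  have hγ : ∀ (a : K) (v : V), (x : V ≃ₗ[K] V).toAddEquiv (a • v) =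
      (RingEquiv.refl K) a • (x : V ≃ₗ[K] V).toAddEquiv v := fun a v => map_smul (x : V ≃ₗ[K] V) a v
  have h1 := qt_semi F hc (RingEquiv.refl K) ((x : V ≃ₗ[K] V).toAddEquiv) hγ
    (fun v w => by
      change F.B ((x : V ≃ₗ[K] V) v) ((x : V ≃ₗ[K] V) w) = 0 ↔ _
      rw [F.iso_B]) (g := g) (g' := x * g * x⁻¹) (fun v => by
      change ((x * g * x⁻¹ : F.iso) : V ≃ₗ[K] V) ((x : V ≃ₗ[K] V) v) = (x : V ≃ₗ[K] V) ((g : V ≃ₗ[K] V) v)
      change (x : V ≃ₗ[K] V) ((g : V ≃ₗ[K] V) ((x : V ≃ₗ[K] V).symm ((x : V ≃ₗ[K] V) v))) = _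
      rw [LinearEquiv.symm_apply_apply]) W
  rw [fmap_refl] at h1
  rw [← h1]
  congr 1

/-- the trivial action of `TT W` -/
theorem qt_TT {n : ℕ} {c : GL (Fin n) K → ℂ} {W : Submodule K V} {g : F.iso} (hg : g ∈ F.TT W) :
    qt F c g W = qt F c 1 W := by
  rw [qt_of F c hg.1, qt_of F c (g := 1) (F.TT W).one_mem.1]
  congr 1
  ext v
  obtain ⟨v, rfl⟩ := Submodule.Quotient.mk_surjective _ v
  rw [qres_mk, qres_mk, Submodule.Quotient.eq]
  exact hg.2 v v.2

/-- the action on `Wᗮ / W` -/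
noncomputable def qHom (W : Submodule K V) : stabW F.iso.subtype W →* (QQ F W ≃ₗ[K] QQ F W) where
  toFun g := qres F W g g.2
  map_one' := by
    ext v
    obtain ⟨v, rfl⟩ := Submodule.Quotient.mk_surjective _ v
    rfl
  map_mul' g h := by
    ext v
    obtain ⟨v, rfl⟩ := Submodule.Quotient.mk_surjective _ v
    rfl

theorem qt_eq {n : ℕ} {c : GL (Fin n) K → ℂ} (hc : IsClassFunction _ c) {W : Submodule K V}
    (b : Basis (Fin n) K (QQ F W)) (g : stabW F.iso.subtype W) : qt F c (g : F.iso) W = c (glE b (qHom F W g)) := by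
  rw [qt_of F c g.2, cl_eq hc b]
  rfl

end Q

end Cfsg.Agent.H70.OC
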