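import Cfsg.Agent.H699.CusGBase
import Cfsg.Agent.H477.HC.Groups

/-!
# The cuspidal character of `GL_2(q)`, `q ≡ 3 mod 8` a power of `3`, of a character of order `8` (S4891, R5, helper70)

* `psi_mem` : the values of `psi L θ` lie in the field of the `|Lˣ|`-th roots of unity;
* `exists_c8` : the cuspidal datum.
-/

set_option autoImplicit false

open scoped ComplexConjugate
open Cfsg Polynomial

namespace Cfsg.Agent.H70.OC

open Cfsg.Agent.H477.HC Cfsg.Agent.H53.HC Cfsg.Agent.Characters Module Cfsg.Agent.H139.Cusp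
  Cfsg.Agent.H576.Ext Cfsg.Agent.H699.CusG

universe u v w

section Mem

attribute [local instance] fintypeHom fintypeSub H139.Cusp.finite_quot

variable {F : Type u} [Field F]

theorem kap_mem {V : Type v} [AddCommGroup V] [Module F V] [Finite V] (E : IntermediateField ℚ ℂ) {B : F[X] → ℂ}
    (hB : ∀ h, B h ∈ E) (g : V →ₗ[F] V) (W : Submodule F V) : kap B g W ∈ E := by
  classical
  induction W using WellFoundedLT.induction with
  | ind W ih =>
    by_cases h : W ≤ W.comap g
    · rw [kap_eq B h]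
      exact sub_mem (hB _) (sum_mem fun W' hW' => ih W' (Finset.mem_filter.1 hW').2)
    · rw [kap_of_not B h]
      exact E.zero_mem

theorem lb_mem {L : Type w} [Field L] [Algebra F L] (E : IntermediateField ℚ ℂ) {θ : L →*₀ ℂ}
    (hθ : ∀ x, θ x ∈ E) (h : F[X]) : lb L θ h ∈ E := by
  unfold lb
  exact multiset_sum_mem _ fun x hx => by
    obtain ⟨y, -, rfl⟩ := Multiset.mem_map.1 hx
    exact hθ y

theorem cusp_mem {L : Type w} [Field L] [Algebra F L] {V : Type v} [AddCommGroup V] [Module F V] [Finite V]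
    (E : IntermediateField ℚ ℂ) {θ : L →*₀ ℂ} (hθ : ∀ x, θ x ∈ E) (g : V →ₗ[F] V) : cusp L θ g ∈ E := by
  unfold cusp
  exact mul_mem (pow_mem (neg_mem E.one_mem) _) (kap_mem E (lb_mem E hθ) g ⊤)

theorem theta_mem {L : Type w} [Field L] [Finite L] (θ : L →*₀ ℂ) (x : L) :
    θ x ∈ IntermediateField.adjoin ℚ ({Complex.exp (2 * Real.pi * Complex.I / (Nat.card L - 1 : ℕ))} : Set ℂ) := by
  by_cases hx : x = 0
  · rw [hx, map_zero]
    exact zero_mem _
  · have h0 : Nat.card L - 1 ≠ 0 := by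
      have : 1 < Nat.card L := Finite.one_lt_card
      omega
    have h1 : (Units.mk0 x hx) ^ (Nat.card L - 1) = 1 := by
      rw [← Nat.card_units]
      exact pow_card_eq_one'
    have h2 : θ x ^ (Nat.card L - 1) = 1 := by
      rw [← map_pow]
      have h3 : x ^ (Nat.card L - 1) = 1 := congrArg Units.val h1
      rw [h3, map_one]
    have : NeZero (Nat.card L - 1) := ⟨h0⟩
    obtain ⟨i, -, hi⟩ := (Complex.isPrimitiveRoot_exp (Nat.card L - 1) h0).eq_pow_of_pow_eq_one h2
    rw [← hi]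
    exact pow_mem (IntermediateField.mem_adjoin_simple_self ℚ _) i

theorem psi_mem [Finite F] {L : Type w} [Field L] [Finite L] [Algebra F L] {n : ℕ} (θ : L →*₀ ℂ) (A : GL (Fin n) F) :
    psi L θ A ∈ IntermediateField.adjoin ℚ ({Complex.exp (2 * Real.pi * Complex.I / (Nat.card L - 1 : ℕ))} : Set ℂ) :=
  cusp_mem _ (theta_mem θ) _

end Mem

theorem psi_eq_of {F : Type u} [Field F] [Finite F] {L : Type w} [Field L] [Finite L] [Algebra F L] {n : ℕ}
    (hn : Module.finrank F L = n) {θ θ' : L →*₀ ℂ} (hreg : Regular F n θ)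
    (h : ∃ i < n, ∀ x : L, θ' x = θ (x ^ Nat.card F ^ i)) : psi (n := n) (F := F) L θ' = psi L θ := by
  funext A
  have h1 := (cusp_eq_iff (V := Fin n → F) θ θ' (by rw [Module.finrank_fin_fun, hn]) (by rw [hn]; exact hreg)).2
    (by rw [hn]; exact h) (Matrix.GeneralLinearGroup.toLin A)
  exact h1.symm

theorem three_pow_mod (j : ℕ) : 3 ^ (2 * j) % 8 = 1 ∧ 3 ^ (2 * j + 1) % 8 = 3 := by
  induction j with
  | zero => exact ⟨rfl, rfl⟩
  | succ j ih =>
    have e1 : 3 ^ (2 * (j + 1)) = 3 ^ (2 * j) * 9 := by rw [mul_add, pow_add]; norm_num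
    have e2 : 3 ^ (2 * (j + 1) + 1) = 3 ^ (2 * j + 1) * 9 := by rw [mul_add, add_right_comm, pow_add]; norm_num
    rw [e1, e2]
    omega

/-- **the cuspidal character** -/
theorem exists_c8 (K : Type u) [Field K] [Finite K] [CharP K 3] {q : ℕ} (hq : Nat.card K = q) (hq8 : q % 8 = 3) :
    ∃ c : GL (Fin 2) K → ℂ, IsIrrCharacter _ c ∧ IsCusp c ∧
      c ∘ ((Matrix.GeneralLinearGroup.map (RingHom.id K)).comp (invT 2)) ≠ c ∧ DIrr ⊥ c ∧ c 1 = ((q - 1 : ℕ) : ℂ) ∧
      (∀ a : Kˣ, a ^ 2 = 1 → c (Matrix.GeneralLinearGroup.scalar (Fin 2) a) ^ 2 = c 1 ^ 2) ∧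
      (∀ τ : K ≃+* K, fmap (τ : K →+* K) c = c) ∧
      ∀ A, c A ∈ IntermediateField.adjoin ℚ ({Complex.exp (2 * Real.pi * Complex.I / (q ^ 2 - 1 : ℕ))} : Set ℂ) := by
  classical
  obtain ⟨L, _, _, _, hL⟩ := exists_L K 2 (by norm_num)
  obtain ⟨φ, hφ⟩ := exists_theta L
  have : Fact (Nat.Prime 3) := ⟨Nat.prime_three⟩
  -- arithmetic
  obtain ⟨r, hr⟩ : ∃ r, q = 8 * r + 3 := ⟨q / 8, by omega⟩
  have hq1 : q - 1 = 2 * (4 * r + 1) := by omega
  have hN : q ^ 2 - 1 = 8 * ((4 * r + 1) * (2 * r + 1)) := by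
    have h1 : q ^ 2 = 8 * ((4 * r + 1) * (2 * r + 1)) + 1 := by
      rw [hr]; ring
    omega
  set a := (4 * r + 1) * (2 * r + 1) with ha'
  have ha : a ≠ 0 := by positivity
  have hcardL : Nat.card L = q ^ 2 := by
    rw [Module.natCard_eq_pow_finrank (K := K), hL, hq]
  have hcardLu : Nat.card Lˣ = q ^ 2 - 1 := by
    rw [Nat.card_units, hcardL]
  have hR : Regular K 2 (powTheta φ a ha) := by
    refine (regular_powTheta_iff hφ ha hL).2 fun i hi hi2 h => ?_
    obtain rfl : i = 1 := by omega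
    rw [hq, pow_one, hN, hq1, mul_comm 8 a] at h
    have h1 := Nat.dvd_of_mul_dvd_mul_left (Nat.pos_of_ne_zero ha) h
    omega
  have h8 : ∀ x : L, x ≠ 0 → (powTheta φ a ha x) ^ 8 = 1 := by
    intro x hx
    have h1 : (Units.mk0 x hx) ^ (q ^ 2 - 1) = 1 := by
      rw [← hcardLu]
      exact pow_card_eq_one'
    have h2 : x ^ (q ^ 2 - 1) = 1 := congrArg Units.val h1
    rw [powTheta_apply, ← pow_mul, mul_comm a 8, ← hN, ← map_pow, h2, map_one]
  have hmod : ∀ (x : L) (s t : ℕ), s ≠ 0 → t ≠ 0 → s % 8 = t % 8 →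
      (powTheta φ a ha x) ^ s = (powTheta φ a ha x) ^ t := by
    intro x s t hs ht hst
    by_cases hx : x = 0
    · rw [hx, map_zero, zero_pow hs, zero_pow ht]
    · rw [← Nat.div_add_mod s 8, ← Nat.div_add_mod t 8, pow_add, pow_mul, h8 x hx, one_pow, one_mul, pow_add, pow_mul,
        h8 x hx, one_pow, one_mul, hst]
  refine ⟨psi L (powTheta φ a ha), psi_isIrr _ hL hR, psi_isCusp L _, ?_, ?_, ?_, ?_, ?_, ?_⟩
  · intro h
    have h1 : ∀ g : ((Fin 2 → K) →ₗ[K] (Fin 2 → K))ˣ, cusp L (powTheta φ a ha) (g : (Fin 2 → K) →ₗ[K] (Fin 2 → K)) =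
        cusp L (conjTheta (powTheta φ a ha)) (g : (Fin 2 → K) →ₗ[K] (Fin 2 → K)) := by
      intro g
      let A : GL (Fin 2) K := Matrix.GeneralLinearGroup.toLin.symm g
      have h2 := congrFun h A
      have h3 : ((Matrix.GeneralLinearGroup.map (RingHom.id K)).comp (invT 2)) A = invT 2 A := by
        ext i j
        rfl
      rw [Function.comp_apply, h3, psi_invT _ hL] at h2
      have h4 : psi L (powTheta φ a ha) A = cusp L (powTheta φ a ha) (g : (Fin 2 → K) →ₗ[K] (Fin 2 → K)) := by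
        have h5 : Matrix.GeneralLinearGroup.toLin A = g := MulEquiv.apply_symm_apply _ g
        rw [← h5]
        rfl
      rw [h4, cusp_star] at h2
      exact h2.symm
    obtain ⟨i, hi, h2⟩ := (cusp_eq_iff (V := Fin 2 → K) (powTheta φ a ha) (conjTheta (powTheta φ a ha))
      (by rw [Module.finrank_fin_fun, hL]) (by rw [hL]; exact hR)).1 h1
    rw [hL] at hi
    have h3 := (conj_powTheta_eq_iff hφ ha ha (pow_ne_zero i (Nat.card_pos (α := K)).ne')).1 h2
    rw [hcardLu, hq, hN, ← Nat.mul_succ, mul_comm 8 a] at h3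
    have h4 := Nat.dvd_of_mul_dvd_mul_left (Nat.pos_of_ne_zero ha) h3
    have h5 : i = 0 ∨ i = 1 := by omega
    rcases h5 with rfl | rfl
    · norm_num at h4
    · rw [pow_one] at h4
      omega
  · have h1 := dirr_pow hφ hL (by norm_num) (⊥ : Subgroup Kˣ) (M := q + 1) (by
      rw [Subgroup.index_bot, Nat.card_units, hq]
      have h2 : (q + 1) * (q - 1) = q ^ 2 - 1 := by
        have := Nat.sq_sub_sq q 1
        rw [one_pow] at this
        exact this.symm
      exact h2) ha (fun i hi hi2 h => by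
        obtain rfl : i = 1 := by omega
        rw [hq, pow_one] at h
        have h3 : ((a : ℤ) - a * q) = -((a * (q - 1) : ℕ) : ℤ) := by
          have : 1 ≤ q := by omega
          push_cast [Nat.cast_sub this]
          ring
        rw [h3, dvd_neg] at h
        have h4 := Int.natCast_dvd_natCast.1 h
        have h5 : q + 1 = (2 * r + 1) * 4 := by omega
        have h6 : a * (q - 1) = (2 * r + 1) * (2 * ((4 * r + 1) * (4 * r + 1))) := by
          rw [ha', hq1]; ring
        rw [h5, h6] at h4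
        have h7 := Nat.dvd_of_mul_dvd_mul_left (by omega) h4
        have h8' : (4 * r + 1) * (4 * r + 1) = 2 * (8 * r * r + 4 * r) + 1 := by ring
        rw [h8'] at h7
        omega)
    exact h1
  · rw [psi_one L _ (by norm_num), degP_eq_Ico, hq]
    simp
  · intro z hz
    have h1 := psi_scalar (powTheta φ a ha) hL z 1
    rw [mul_one] at h1
    rw [h1, mul_pow, ← map_pow, ← map_pow, ← Units.val_pow_eq_pow_val, hz, Units.val_one, map_one, map_one, one_mul]
  · intro τ
    obtain ⟨j, hj⟩ : ∃ j : ℕ, ∀ x : K, τ x = x ^ 3 ^ j := by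
      exact H53.HC.Gal.exists_frob_pow (p := 3) τ
    have h1 := fmap_psi (n := 2) hL (p := 3) (τ := (τ : K →+* K)) (j := j) hj (powTheta φ a ha)
    rw [h1]
    refine psi_eq_of hL hR ?_
    have hj0 : 3 ^ j ≠ 0 := by positivity
    obtain ⟨i, rfl | rfl⟩ := Nat.even_or_odd' j
    · refine ⟨0, by norm_num, fun x => ?_⟩
      rw [pow_zero, pow_one, powTheta_apply, hmod x _ 1 hj0 one_ne_zero (three_pow_mod i).1, pow_one]
    · refine ⟨1, by norm_num, fun x => ?_⟩
      rw [pow_one, hq, powTheta_apply, map_pow]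
      exact hmod x _ q hj0 (by omega) ((three_pow_mod i).2.trans hq8.symm)
  · intro A
    have h1 := psi_mem (F := K) (L := L) (powTheta φ a ha) A
    rw [hcardL] at h1
    exact h1

end Cfsg.Agent.H70.OC
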