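import Cfsg.Agent.H70.OC.QPsi
import Cfsg.Agent.H477.HC.Groups

/-!
# A totally isotropic plane of the symplectic space of dimension six (S4891, R5, helper70)
-/

set_option autoImplicit false

open scoped ComplexConjugate
open Cfsg

namespace Cfsg.Agent.H70.OC

open Cfsg.Agent.H477.HC Cfsg.Agent.H53.HC Cfsg.Agent.Characters Cfsg.Agent.OddOrderCharacters.Clifford Module
  Cfsg.Agent.H477.HC.CForm MulAction Cfsg.Agent.H576.Ext

universe u

variable (K : Type u) [Field K]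

/-- the plane -/
def W0 : Submodule K (Fin 3 ⊕ Fin 3 → K) where
  carrier := {v | v (.inl 2) = 0 ∧ v (.inr 0) = 0 ∧ v (.inr 1) = 0 ∧ v (.inr 2) = 0}
  zero_mem' := ⟨rfl, rfl, rfl, rfl⟩
  add_mem' := by
    rintro a b ⟨h1, h2, h3, h4⟩ ⟨h1', h2', h3', h4'⟩
    simp only [Set.mem_ofPred_eq, Pi.add_apply, h1, h2, h3, h4, h1', h2', h3', h4', add_zero, and_self]
  smul_mem' := by
    rintro c a ⟨h1, h2, h3, h4⟩
    simp only [Set.mem_ofPred_eq, Pi.smul_apply, h1, h2, h3, h4, smul_zero, and_self]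

theorem mem_W0 {v : Fin 3 ⊕ Fin 3 → K} :
    v ∈ W0 K ↔ v (.inl 2) = 0 ∧ v (.inr 0) = 0 ∧ v (.inr 1) = 0 ∧ v (.inr 2) = 0 := Iff.rfl

theorem B3 (u v : Fin 3 ⊕ Fin 3 → K) : (spF K 3).B u v =
    (u (.inl 0) * v (.inr 0) - u (.inr 0) * v (.inl 0)) + (u (.inl 1) * v (.inr 1) - u (.inr 1) * v (.inl 1)) +
    (u (.inl 2) * v (.inr 2) - u (.inr 2) * v (.inl 2)) := by
  rw [spF_B]
  simp only [Fin.sum_univ_three]
  ring

/-- vectors by coordinates -/
def mk6 (a b c a' b' c' : K) : Fin 3 ⊕ Fin 3 → K := Sum.elim ![a, b, c] ![a', b', c']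

theorem mem_perp_W0 {v : Fin 3 ⊕ Fin 3 → K} : v ∈ (spF K 3).perp (W0 K) ↔ v (.inr 0) = 0 ∧ v (.inr 1) = 0 := by
  constructor
  · intro h
    have h1 := h (mk6 K 1 0 0 0 0 0) ⟨rfl, rfl, rfl, rfl⟩
    have h2 := h (mk6 K 0 1 0 0 0 0) ⟨rfl, rfl, rfl, rfl⟩
    rw [B3] at h1 h2
    simp [mk6] at h1 h2
    exact ⟨h1, h2⟩
  · rintro ⟨h1, h2⟩ w ⟨h3, h4, h5, h6⟩
    rw [B3, h1, h2, h3, h4, h5, h6]
    ring

theorem W0_mem : W0 K ∈ (spF K 3).Om 2 := by
  refine ⟨⟨fun w _ => rfl, ?_⟩, ?_⟩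
  · rintro w ⟨h1, h2, h3, h4⟩ w' ⟨h1', h2', h3', h4'⟩
    rw [B3, h1, h2, h3, h4, h1', h2', h3', h4']
    ring
  · let e : W0 K ≃ₗ[K] (Fin 2 → K) :=
      { toFun := fun w => ![(w : Fin 3 ⊕ Fin 3 → K) (.inl 0), (w : Fin 3 ⊕ Fin 3 → K) (.inl 1)]
        invFun := fun x => ⟨mk6 K (x 0) (x 1) 0 0 0 0, rfl, rfl, rfl, rfl⟩
        map_add' := fun x y => by
          ext i
          fin_cases i <;> rfl
        map_smul' := fun c x => by
          ext i
          fin_cases i <;> rfl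
        left_inv := fun w => by
          obtain ⟨w, h1, h2, h3, h4⟩ := w
          apply Subtype.ext
          funext i
          rcases i with i | i
          · fin_cases i
            · rfl
            · rfl
            · exact h1.symm
          · fin_cases i
            · exact h2.symm
            · exact h3.symm
            · exact h4.symm
        right_inv := fun x => by
          funext i
          fin_cases i <;> rfl }
    rw [e.finrank_eq, finrank_fin_fun]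

/-- the coordinates on `W₀ᗮ / W₀` -/
def qmap : (spF K 3).perp (W0 K) →ₗ[K] (Fin 2 → K) where
  toFun v := ![(v : Fin 3 ⊕ Fin 3 → K) (.inl 2), (v : Fin 3 ⊕ Fin 3 → K) (.inr 2)]
  map_add' := fun x y => by
    ext i
    fin_cases i <;> rfl
  map_smul' := fun c x => by
    ext i
    fin_cases i <;> rfl

/-- the section -/
def qsec (x : Fin 2 → K) : (spF K 3).perp (W0 K) :=
  ⟨mk6 K 0 0 (x 0) 0 0 (x 1), (mem_perp_W0 K).2 ⟨rfl, rfl⟩⟩

theorem qmap_ker : LinearMap.ker (qmap K) = inP (spF K 3) (W0 K) := by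
  ext v
  obtain ⟨v, hv⟩ := v
  obtain ⟨h1, h2⟩ := (mem_perp_W0 K).1 hv
  constructor
  · intro h
    have h3 := congrFun (LinearMap.mem_ker.1 h) 0
    have h4 := congrFun (LinearMap.mem_ker.1 h) 1
    exact ⟨h3, h1, h2, h4⟩
  · rintro ⟨h3, -, -, h4⟩
    rw [LinearMap.mem_ker]
    ext i
    fin_cases i
    · exact h3
    · exact h4

/-- `W₀ᗮ / W₀` is a plane -/
noncomputable def qequiv : QQ (spF K 3) (W0 K) ≃ₗ[K] (Fin 2 → K) :=
  { (Submodule.liftQ (inP (spF K 3) (W0 K)) (qmap K) (qmap_ker K).ge : QQ (spF K 3) (W0 K) →ₗ[K] (Fin 2 → K)) with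
    invFun := fun x => Submodule.Quotient.mk (qsec K x)
    left_inv := fun v => by
      obtain ⟨v, rfl⟩ := Submodule.Quotient.mk_surjective _ v
      refine (Submodule.Quotient.eq _).2 ((qmap_ker K).le (LinearMap.mem_ker.2 ?_))
      rw [map_sub, sub_eq_zero]
      ext i
      fin_cases i <;> rfl
    right_inv := fun x => by
      ext i
      fin_cases i <;> rfl }

/-- the basis of `W₀ᗮ / W₀` -/
noncomputable def bQ : Basis (Fin 2) K (QQ (spF K 3) (W0 K)) := Basis.ofEquivFun (qequiv K)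

theorem bQ_apply (j : Fin 2) : bQ K j = Submodule.Quotient.mk (qsec K (Pi.single j 1)) := by
  unfold bQ
  rw [Basis.coe_ofEquivFun]
  rfl

theorem bQ_repr (v : (spF K 3).perp (W0 K)) (i : Fin 2) :
    (bQ K).repr (Submodule.Quotient.mk v) i = qmap K v i := by
  rw [← Basis.equivFun_apply]
  unfold bQ
  rw [Basis.equivFun_ofEquivFun]
  rfl

variable {K}

/-- the linear map -/
def act (A : Matrix (Fin 2) (Fin 2) K) : Module.End K (Fin 3 ⊕ Fin 3 → K) where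
  toFun v := mk6 K (v (.inl 0)) (v (.inl 1)) (A 0 0 * v (.inl 2) + A 0 1 * v (.inr 2))
    (v (.inr 0)) (v (.inr 1)) (A 1 0 * v (.inl 2) + A 1 1 * v (.inr 2))
  map_add' := fun x y => by
    funext i
    rcases i with i | i <;> fin_cases i <;> simp [mk6] <;> ring
  map_smul' := fun c x => by
    funext i
    rcases i with i | i <;> fin_cases i <;> simp [mk6] <;> ring

/-- `SL₂ → F.iso` -/
noncomputable def io1 : DL (⊥ : Subgroup Kˣ) 2 →* Module.End K (Fin 3 ⊕ Fin 3 → K) where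
  toFun A := act ((A : GL (Fin 2) K) : Matrix (Fin 2) (Fin 2) K)
  map_one' := by
    ext1
    ext1
    funext i
    rcases i with i | i <;> fin_cases i <;> simp [act, mk6]
  map_mul' := fun A B => by
    apply LinearMap.ext
    intro v
    funext i
    rcases i with i | i <;> fin_cases i <;> simp [act, mk6, Matrix.mul_apply, Fin.sum_univ_two] <;> ring

theorem det_DL (A : DL (⊥ : Subgroup Kˣ) 2) :
    ((A : GL (Fin 2) K) : Matrix (Fin 2) (Fin 2) K) 0 0 * ((A : GL (Fin 2) K) : Matrix (Fin 2) (Fin 2) K) 1 1 -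
    ((A : GL (Fin 2) K) : Matrix (Fin 2) (Fin 2) K) 0 1 * ((A : GL (Fin 2) K) : Matrix (Fin 2) (Fin 2) K) 1 0 = 1 := by
  have h : Matrix.GeneralLinearGroup.det (A : GL (Fin 2) K) = 1 := (Subgroup.mem_bot).1 A.2
  have h1 := congrArg Units.val h
  rw [← Matrix.det_fin_two]
  exact h1

/-- `SL₂ → GL(V)` -/
noncomputable def io2 : DL (⊥ : Subgroup Kˣ) 2 →* ((Fin 3 ⊕ Fin 3 → K) ≃ₗ[K] (Fin 3 ⊕ Fin 3 → K)) :=
  (LinearMap.GeneralLinearGroup.generalLinearEquiv K (Fin 3 ⊕ Fin 3 → K)).toMonoidHom.comp io1.toHomUnits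

theorem io2_apply (A : DL (⊥ : Subgroup Kˣ) 2) (v : Fin 3 ⊕ Fin 3 → K) :
    io2 A v = act ((A : GL (Fin 2) K) : Matrix (Fin 2) (Fin 2) K) v := rfl

/-- `SL₂ → Sp₆` -/
noncomputable def io3 : DL (⊥ : Subgroup Kˣ) 2 →* (spF K 3).iso :=
  io2.codRestrict (spF K 3).iso fun A => by
    refine ⟨fun u v => ?_, fun v => rfl⟩
    have h := det_DL A
    rw [io2_apply, io2_apply, B3, B3]
    simp only [act, mk6, LinearMap.coe_mk, AddHom.coe_mk, Sum.elim_inl, Sum.elim_inr, Matrix.cons_val_zero,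
      Matrix.cons_val_one, Matrix.cons_val]
    linear_combination (u (Sum.inl 2) * v (Sum.inr 2) - u (Sum.inr 2) * v (Sum.inl 2)) * h

theorem io3_apply (A : DL (⊥ : Subgroup Kˣ) 2) (v : Fin 3 ⊕ Fin 3 → K) :
    ((io3 A : (spF K 3).iso) : (Fin 3 ⊕ Fin 3 → K) ≃ₗ[K] (Fin 3 ⊕ Fin 3 → K)) v =
      act ((A : GL (Fin 2) K) : Matrix (Fin 2) (Fin 2) K) v := rfl

/-- `SL₂ → Sp₆`, into the stabiliser of the plane -/
noncomputable def io4 [Finite K] : DL (⊥ : Subgroup Kˣ) 2 →* stabW (spF K 3).iso.subtype (W0 K) :=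
  io3.codRestrict _ fun A => by
    refine map_eq_of_le (spF K 3).iso.subtype fun w hw => ?_
    obtain ⟨h1, h2, h3, h4⟩ := hw
    change act ((A : GL (Fin 2) K) : Matrix (Fin 2) (Fin 2) K) w ∈ W0 K
    refine ⟨?_, h2, h3, ?_⟩
    · change _ * w (.inl 2) + _ * w (.inr 2) = 0
      rw [h1, h4, mul_zero, mul_zero, add_zero]
    · change _ * w (.inl 2) + _ * w (.inr 2) = 0
      rw [h1, h4, mul_zero, mul_zero, add_zero]

theorem io4_apply [Finite K] (A : DL (⊥ : Subgroup Kˣ) 2) (v : Fin 3 ⊕ Fin 3 → K) :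
    ((io4 A : (spF K 3).iso) : (Fin 3 ⊕ Fin 3 → K) ≃ₗ[K] (Fin 3 ⊕ Fin 3 → K)) v =
      act ((A : GL (Fin 2) K) : Matrix (Fin 2) (Fin 2) K) v := rfl

theorem glE_io4 [Finite K] (A : DL (⊥ : Subgroup Kˣ) 2) :
    glE (bQ K) (qHom (spF K 3) (W0 K) (io4 A)) = (A : GL (Fin 2) K) := by
  ext i j
  rw [coe_glE, LinearMap.toMatrix_apply, bQ_apply]
  have h : (W0 K).map ((spF K 3).iso.subtype (io4 A : (spF K 3).iso) :
      (Fin 3 ⊕ Fin 3 → K) →ₗ[K] (Fin 3 ⊕ Fin 3 → K)) = W0 K := (io4 A).2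
  have e : (qHom (spF K 3) (W0 K) (io4 A)) (Submodule.Quotient.mk (qsec K (Pi.single j 1))) =
      Submodule.Quotient.mk ⟨((io4 A : (spF K 3).iso) : (Fin 3 ⊕ Fin 3 → K) ≃ₗ[K] (Fin 3 ⊕ Fin 3 → K))
        (qsec K (Pi.single j 1)), perp_apply (spF K 3) h _⟩ := rfl
  change (bQ K).repr (qHom (spF K 3) (W0 K) (io4 A) (Submodule.Quotient.mk (qsec K (Pi.single j 1)))) i = _
  rw [e, bQ_repr]
  have e3 : qmap K ⟨((io4 A : (spF K 3).iso) : (Fin 3 ⊕ Fin 3 → K) ≃ₗ[K] (Fin 3 ⊕ Fin 3 → K))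
        (qsec K (Pi.single j 1)), perp_apply (spF K 3) h _⟩ i =
      ![(act ((A : GL (Fin 2) K) : Matrix (Fin 2) (Fin 2) K) (qsec K (Pi.single j 1) : Fin 3 ⊕ Fin 3 → K)) (.inl 2),
        (act ((A : GL (Fin 2) K) : Matrix (Fin 2) (Fin 2) K) (qsec K (Pi.single j 1) : Fin 3 ⊕ Fin 3 → K)) (.inr 2)] i :=
    rfl
  rw [e3]
  fin_cases i <;> fin_cases j <;> simp [qsec, act, mk6]

/-- the factor on `W₀ᗮ / W₀` is irreducible -/
theorem isIrr_qt [Finite K] {c : GL (Fin 2) K → ℂ} (hc : IsCharacter _ c) (hirr : DIrr ⊥ c) :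
    IsIrrCharacter (stabW (spF K 3).iso.subtype (W0 K)) (fun g => qt (spF K 3) c (g : (spF K 3).iso) (W0 K)) := by
  have hcf := Core.isCharacter_isClassFunction hc
  have hfin : Finite ((Fin 3 ⊕ Fin 3 → K) ≃ₗ[K] (Fin 3 ⊕ Fin 3 → K)) :=
    Finite.of_injective (fun e : (Fin 3 ⊕ Fin 3 → K) ≃ₗ[K] (Fin 3 ⊕ Fin 3 → K) =>
      (e : (Fin 3 ⊕ Fin 3 → K) → (Fin 3 ⊕ Fin 3 → K))) DFunLike.coe_injective
  have e : (fun g : stabW (spF K 3).iso.subtype (W0 K) => qt (spF K 3) c (g : (spF K 3).iso) (W0 K)) =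
      c ∘ ((glE (bQ K)).toMonoidHom.comp (qHom (spF K 3) (W0 K))) := by
    funext g
    rw [qt_eq (spF K 3) hcf (bQ K)]
    rfl
  have hch : IsCharacter (stabW (spF K 3).iso.subtype (W0 K))
      (fun g => qt (spF K 3) c (g : (spF K 3).iso) (W0 K)) := by
    rw [e]
    exact Core.isCharacter_comp _ hc
  refine CharactersDeep.MaxInduced.isIrr_of_comp io4 hch ?_
  have e2 : (fun g : stabW (spF K 3).iso.subtype (W0 K) => qt (spF K 3) c (g : (spF K 3).iso) (W0 K)) ∘ io4 =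
      (fun A : DL (⊥ : Subgroup Kˣ) 2 => c A) := by
    funext A
    change qt (spF K 3) c (io4 A : (spF K 3).iso) (W0 K) = c A
    rw [qt_eq (spF K 3) hcf (bQ K), glE_io4]
  rw [e2]
  exact hirr

end Cfsg.Agent.H70.OC
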