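import Cfsg.Agent.H70.OC.SpFrame
import Cfsg.Agent.H993.OC.Row
import Cfsg.Agent.H464.ExtQSp

/-!
# `PSp_6(q)` in defining characteristic: from a cuspidal character of `GL_2` (S4891, R5, helper70)
-/

set_option autoImplicit false
set_option linter.unusedSectionVars false

open scoped ComplexConjugate
open Cfsg

namespace Cfsg.Agent.H70.OC

open Cfsg.Agent.H477.HC Cfsg.Agent.H53.HC Cfsg.Agent.Characters Cfsg.Agent.OddOrderCharacters.Clifford Module
  Cfsg.Agent.H477.HC.CForm MulAction Cfsg.Agent.H576.Ext Cfsg.Agent.H145.BR Cfsg.Agent.H993.OC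

universe u

variable {K : Type u} [Field K] [Finite K]

/-- there are no disjoint orthogonal totally isotropic planes -/
theorem no_perp {W W' : Submodule K (Fin 3 ⊕ Fin 3 → K)} (hW : W ∈ (spF K 3).Om 2) (hW' : W' ∈ (spF K 3).Om 2)
    (h1 : W ≤ (spF K 3).perp W') (h2 : W ⊓ W' = ⊥) : False := by
  have hM := (spF K 3).TS_sup hW.1 hW'.1 h1
  have h3 := Submodule.finrank_sup_add_finrank_inf_eq W W'
  rw [h2, finrank_bot, hW.2, hW'.2] at h3
  obtain ⟨W₁, hW₁, h4⟩ := (spF K 3).exists_opp (k := 4) (W := W ⊔ W') ⟨hM, h3⟩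
  have h5 : (W ⊔ W') ⊓ W₁ = ⊥ := by
    rw [eq_bot_iff, ← h4]
    exact inf_le_inf_left _ hW₁.1.le_perp
  have h6 := Submodule.finrank_sup_add_finrank_inf_eq (W ⊔ W') W₁
  rw [h5, finrank_bot, hW₁.2] at h6
  have h7 := Submodule.finrank_le ((W ⊔ W') ⊔ W₁)
  rw [finrank_fintype_fun_eq_card, Fintype.card_sum, Fintype.card_fin] at h7
  omega

/-- the character -/
theorem isIrr_chi [Fintype (spF K 3).iso] [Fintype ((spF K 3).Om 2)] {c : GL (Fin 2) K → ℂ}
    (hc : IsIrrCharacter _ c) (hcusp : IsCusp c) (hdual : c ∘ (spF K 3).iota 2 ≠ c) (hirr : DIrr ⊥ c) :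
    IsIrrCharacter (spF K 3).iso ((spF K 3).hc c (qt (spF K 3) c)) := by
  have hcf := Core.isIrr_isClassFunction hc
  obtain ⟨W₁, hW₁, hopp⟩ := (spF K 3).exists_opp (W0_mem K)
  refine (spF K 3).isIrr_hc hc hcusp hdual (fun x g W => qt_conj (spF K 3) hcf x g W)
    (fun W _ g hg => qt_TT (spF K 3) hg) (W0_mem K) (fun W hW => (spF K 3).trans_Om (W0_mem K) hW) ?_
    (fun W' hW' h1 h2 => (no_perp (W0_mem K) hW' h1 h2).elim)
  exact (spF K 3).isIrr_stab hc (ψ := qt (spF K 3) c) (fun W _ g hg => qt_TT (spF K 3) hg) (W0_mem K) hW₁ hopp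
    (isIrr_qt (Core.isIrr_isCharacter hc) hirr)

omit [Finite K] in
theorem glE_scalar {W : Type*} [AddCommGroup W] [Module K W] {n : ℕ} (b : Basis (Fin n) K W) (f : W ≃ₗ[K] W) (a : Kˣ)
    (h : ∀ w, f w = (a : K) • w) : glE b f = Matrix.GeneralLinearGroup.scalar (Fin n) a := by
  ext i j
  rw [coe_glE, LinearMap.toMatrix_apply]
  change (b.repr (f (b j))) i = _
  rw [h, map_smul, Finsupp.smul_apply, Basis.repr_self, smul_eq_mul, Matrix.GeneralLinearGroup.coe_scalar,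
    Matrix.scalar_apply, Matrix.diagonal_apply, Finsupp.single_apply]
  by_cases hij : i = j
  · simp [hij]
  · rw [if_neg hij, if_neg (Ne.symm hij), mul_zero]

/-- the values at scalars -/
theorem hc_scal [Fintype ((spF K 3).Om 2)] {c : GL (Fin 2) K → ℂ}
    (hcf : IsClassFunction _ c) {z : (spF K 3).iso} {a : Kˣ}
    (hz : ∀ v, (z : (Fin 3 ⊕ Fin 3 → K) ≃ₗ[K] (Fin 3 ⊕ Fin 3 → K)) v = (a : K) • v) :
    (spF K 3).hc c (qt (spF K 3) c) z = (Nat.card ((spF K 3).Om 2) : ℂ) *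
      (c (Matrix.GeneralLinearGroup.scalar (Fin 2) a) * c (Matrix.GeneralLinearGroup.scalar (Fin 2) a)) := by
  classical
  have hst : ∀ W : Submodule K (Fin 3 ⊕ Fin 3 → K), W.map ((spF K 3).iso.subtype z :
      (Fin 3 ⊕ Fin 3 → K) →ₗ[K] (Fin 3 ⊕ Fin 3 → K)) = W := fun W => map_eq_of_le (spF K 3).iso.subtype fun w hw => by
    change (z : (Fin 3 ⊕ Fin 3 → K) ≃ₗ[K] (Fin 3 ⊕ Fin 3 → K)) w ∈ W
    rw [hz]; exact W.smul_mem _ hw
  have hcen : ∀ x : (spF K 3).iso, x * z * x⁻¹ = z := by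
    intro x
    rw [mul_inv_eq_iff_eq_mul]
    apply Subtype.ext
    apply LinearEquiv.ext
    intro v
    change (x : (Fin 3 ⊕ Fin 3 → K) ≃ₗ[K] (Fin 3 ⊕ Fin 3 → K)) ((z : (Fin 3 ⊕ Fin 3 → K) ≃ₗ[K] (Fin 3 ⊕ Fin 3 → K)) v) =
      (z : (Fin 3 ⊕ Fin 3 → K) ≃ₗ[K] (Fin 3 ⊕ Fin 3 → K)) ((x : (Fin 3 ⊕ Fin 3 → K) ≃ₗ[K] (Fin 3 ⊕ Fin 3 → K)) v)
    rw [hz, hz, map_smul]
  have hq0 : qt (spF K 3) c z (W0 K) = c (Matrix.GeneralLinearGroup.scalar (Fin 2) a) := by
    rw [qt_of (spF K 3) c (hst (W0 K)), cl_eq hcf (bQ K)]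
    congr 1
    refine glE_scalar _ _ a fun w => ?_
    obtain ⟨w, rfl⟩ := Submodule.Quotient.mk_surjective _ w
    rw [qres_mk, ← Submodule.Quotient.mk_smul]
    congr 1
    exact Subtype.ext (hz _)
  have hq : ∀ W ∈ (spF K 3).Om 2, qt (spF K 3) c z W = c (Matrix.GeneralLinearGroup.scalar (Fin 2) a) := by
    intro W hW
    obtain ⟨x, rfl⟩ := (spF K 3).trans_Om (W0_mem K) hW
    have h1 := qt_conj (spF K 3) hcf x z (W0 K)
    rw [hcen] at h1
    rw [h1, hq0]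
  unfold CForm.hc
  have h1 : ∀ W : (spF K 3).Om 2, flagTerm (spF K 3).iso.subtype c z W.1 * qt (spF K 3) c z W.1 =
      c (Matrix.GeneralLinearGroup.scalar (Fin 2) a) * c (Matrix.GeneralLinearGroup.scalar (Fin 2) a) := by
    intro W
    rw [hq W.1 W.2, flagTerm_of (spF K 3).iso.subtype c (hst W.1), cl_eq hcf (finBasisOfFinrankEq K W.1 W.2.2)]
    congr 2
    exact glE_scalar _ _ a fun w => Subtype.ext (hz _)
  rw [Finset.sum_congr rfl fun W _ => h1 W, Finset.sum_const, Finset.card_univ, ← Nat.card_eq_fintype_card,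
    nsmul_eq_mul]

/-- the degree -/
theorem hc_deg [Fintype ((spF K 3).Om 2)] {c : GL (Fin 2) K → ℂ} (hcf : IsClassFunction _ c) :
    (spF K 3).hc c (qt (spF K 3) c) 1 = (Nat.card ((spF K 3).Om 2) : ℂ) * (c 1 * c 1) := by
  have h := hc_scal hcf (z := 1) (a := 1) (fun v => by rw [Units.val_one, one_smul]; rfl)
  rw [map_one] at h
  exact h

omit [Finite K] in
/-- the values lie in every field containing the values of `c` -/
theorem hc_mem [Fintype ((spF K 3).Om 2)] {c : GL (Fin 2) K → ℂ} (E : IntermediateField ℚ ℂ) (hE : ∀ A, c A ∈ E)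
    (g : (spF K 3).iso) : (spF K 3).hc c (qt (spF K 3) c) g ∈ E := by
  classical
  have hcl : ∀ {W : Type u} [AddCommGroup W] [Module K W] (f : W ≃ₗ[K] W), cl c f ∈ E := by
    intro W _ _ f
    unfold cl
    split_ifs
    · exact hE _
    · exact E.zero_mem
  unfold CForm.hc
  refine sum_mem fun W _ => mul_mem ?_ ?_
  · unfold flagTerm
    split_ifs
    · exact hcl _
    · exact E.zero_mem
  · unfold qt
    split_ifs
    · exact hcl _
    · exact E.zero_mem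

/-- the action of a semisimilarity -/
theorem hc_conj [Fintype ((spF K 3).Om 2)] {c : GL (Fin 2) K → ℂ} (hcf : IsClassFunction _ c)
    (hτ : ∀ τ : K ≃+* K, fmap (τ : K →+* K) c = c) (s : Semi (spF K 3)) (g g' : (spF K 3).iso)
    (h : ∀ v, (g' : (Fin 3 ⊕ Fin 3 → K) ≃ₗ[K] (Fin 3 ⊕ Fin 3 → K)) (s.γ v) =
      s.γ ((g : (Fin 3 ⊕ Fin 3 → K) ≃ₗ[K] (Fin 3 ⊕ Fin 3 → K)) v)) :
    (spF K 3).hc c (qt (spF K 3) c) g' = (spF K 3).hc c (qt (spF K 3) c) g := by
  have h1 := hc_semi_q (spF K 3) (k := 2) (n := 2) hcf hcf s.τ s.γ s.smul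
    (fun v w => by
      rw [s.hB]
      constructor
      · intro h2
        exact (map_eq_zero s.τ).1 ((mul_eq_zero.1 h2).resolve_left s.hlam)
      · intro h2
        rw [h2, map_zero, mul_zero])
    (fun v => ⟨fun _ => rfl, fun _ => rfl⟩) g g' h
  rw [hτ] at h1
  exact h1

/-- **the row from a cuspidal character** -/
theorem row_of_cus {K : Type} [Field K] [Finite K] {p : ℕ} (hOm : ¬ p ∣ Nat.card ((spF K 3).Om 2))
    (hp : p.Prime) {c : GL (Fin 2) K → ℂ}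
    (hc : IsIrrCharacter _ c) (hcusp : IsCusp c) (hdual : c ∘ (spF K 3).iota 2 ≠ c) (hirr : DIrr ⊥ c)
    {d : ℕ} (hd : c 1 = d) (hd1 : 1 < d) (hpd : ¬ p ∣ d)
    (hsc : ∀ a : Kˣ, a ^ 2 = 1 → c (Matrix.GeneralLinearGroup.scalar (Fin 2) a) ^ 2 = c 1 ^ 2)
    (hτ : ∀ τ : K ≃+* K, fmap (τ : K →+* K) c = c) {n : ℕ} (hn : ¬ p ∣ n)
    (hE : ∀ A, c A ∈ IntermediateField.adjoin ℚ {Complex.exp (2 * Real.pi * Complex.I / n)}) :
    OCRow p (PSp 3 K) := by
  classical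
  have hcf := Core.isIrr_isClassFunction hc
  have := finite_Om (spF K 3) 2
  have := finite_iso (spF K 3)
  let _ := Fintype.ofFinite ((spF K 3).Om 2)
  let _ := Fintype.ofFinite (spF K 3).iso
  obtain ⟨D, hD⟩ := H464.ExtR3.semiQ_sp (K := K) (m := 3) (by norm_num) (Or.inl le_rfl)
  have hchi := isIrr_chi hc hcusp hdual hirr
  set χ := (spF K 3).hc c (qt (spF K 3) c) with hχdef
  -- scalars
  have hker : ∀ n : (⊤ : Subgroup (spF K 3).iso), D.q n = 1 → χ n = χ 1 := by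
    intro n hn
    obtain ⟨a, ha⟩ := (D.ker n).1 hn
    have ha2 : a ^ 2 = 1 := by
      have h1 := (spF K 3).iso_B (n : (spF K 3).iso) (mk6 K 1 0 0 0 0 0) (mk6 K 0 0 0 1 0 0)
      rw [ha, ha, (spF K 3).B_smul_left, (spF K 3).B_smul_right, B3] at h1
      simp [mk6] at h1
      rw [pow_two]
      exact h1
    have ha0 : a ≠ 0 := by
      rintro rfl
      rw [zero_pow two_ne_zero] at ha2
      exact zero_ne_one ha2
    have h1 := hc_scal hcf (z := (n : (spF K 3).iso)) (a := Units.mk0 a ha0) (fun v => ha v)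
    rw [hχdef, h1, hc_deg hcf, ← pow_two, ← pow_two, hsc _ (Units.ext ha2)]
  let f : (⊤ : Subgroup (spF K 3).iso) → ℂ := fun n => χ n
  have hf : IsIrrCharacter (⊤ : Subgroup (spF K 3).iso) f :=
    Core.isIrr_comp (⊤ : Subgroup (spF K 3).iso).subtype (fun x => ⟨⟨x, trivial⟩, rfl⟩) hchi
  obtain ⟨η, hη, hηf⟩ := exists_quot D.q.ker hf (fun z hz => hker z hz)
  let E := QuotientGroup.quotientKerEquivOfSurjective D.q D.surj
  let θ : PSp 3 K → ℂ := fun x => η (E.symm x)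
  have hθ : IsIrrCharacter (PSp 3 K) θ := Core.isIrr_comp E.symm.toMonoidHom E.symm.surjective hη
  have hθq : ∀ n, θ (D.q n) = χ n := by
    intro n
    have h1 : E.symm (D.q n) = (n : (⊤ : Subgroup (spF K 3).iso) ⧸ D.q.ker) := by
      rw [MulEquiv.symm_apply_eq]
      rfl
    change η (E.symm (D.q n)) = χ n
    rw [h1, hηf]
  have hθ1 : θ 1 = ((Nat.card ((spF K 3).Om 2) * (d * d) : ℕ) : ℂ) := by
    have h1 := hθq 1
    rw [map_one] at h1
    rw [h1, hχdef]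
    change (spF K 3).hc c (qt (spF K 3) c) 1 = _
    rw [hc_deg hcf, hd]
    push_cast
    ring
  have hOm0 : 0 < Nat.card ((spF K 3).Om 2) := by
    have : Nonempty ((spF K 3).Om 2) := ⟨⟨W0 K, W0_mem K⟩⟩
    exact Nat.card_pos
  intro A _
  refine ⟨θ, hθ, ?_, ⟨_, hθ1, ?_⟩, ⟨n, hn, fun x => ?_⟩, fun α _ x => ?_⟩
  · intro h
    have h1 := congrFun h 1
    rw [hθ1, Pi.one_apply] at h1
    have h3 : Nat.card ((spF K 3).Om 2) * (d * d) = 1 := by exact_mod_cast h1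
    have h4 := Nat.eq_one_of_mul_eq_one_left h3
    nlinarith
  · intro h
    rcases hp.dvd_mul.1 h with h | h
    · exact hOm h
    · rcases hp.dvd_mul.1 h with h | h <;> exact hpd h
  · obtain ⟨m, rfl⟩ := D.surj x
    rw [hθq]
    exact hc_mem _ hE _
  · obtain ⟨m, rfl⟩ := D.surj x
    obtain ⟨s, hs⟩ := hD α
    rw [hs m ⟨s.conj m, trivial⟩ (fun v => s.conj_γ _ v), hθq, hθq]
    exact hc_conj hcf hτ s _ _ (fun v => s.conj_γ _ v)

end Cfsg.Agent.H70.OC
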