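import Cfsg.Agent.H70.OC.SpMain
import Cfsg.Agent.H70.OC.SpCus
import Cfsg.Agent.H898.OC.Omk

/-!
# The row `PSp_6(3^(3^a))`, `p = 3`, of S4891 (R5, helper70)

`F = spF K 3`, `c` the cuspidal character of `GL_2(q)` of a character of order `8` of `F_{q²}ˣ`; the character
`g ↦ ∑ c (g | W) c (g | Wᗮ / W)` (`W` the `g`-invariant totally isotropic planes) is irreducible, trivial on `-1`, invariant
under all semisimilarities, has values in `Q(ζ_{q²-1})` and degree prime to `3`.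
-/

set_option autoImplicit false

open scoped ComplexConjugate
open Cfsg

namespace Cfsg.Agent.H70.OC

open Cfsg.Agent.H477.HC Cfsg.Agent.H53.HC Cfsg.Agent.Characters Module
  Cfsg.Agent.H477.HC.CForm Cfsg.Agent.H576.Ext Cfsg.Agent.H145.BR Cfsg.Agent.H993.OC

/-- **`PSp_6(q)`, `q = 3 ^ m`, `m` odd, in characteristic `3`** -/
theorem ocRow_psp_six {K : Type} [Field K] [Finite K] [CharP K 3] {m : ℕ} (hm : Odd m) (hK : Nat.card K = 3 ^ m) :
    OCRow 3 (PSp 3 K) := by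
  obtain ⟨i, rfl⟩ := hm
  have : Fact (Nat.Prime 3) := ⟨Nat.prime_three⟩
  have h8 : Nat.card K % 8 = 3 := by rw [hK]; exact (three_pow_mod i).2
  obtain ⟨c, hc, hcusp, hdual, hirr, hd, hsc, hτ, hE⟩ := exists_c8 K rfl h8
  have hOm : ¬ 3 ∣ Nat.card ((spF K 3).Om 2) := H898.OC.omk (spF K 3) (p := 3) (by norm_num) 2 ⟨W0 K, W0_mem K⟩
  have h3 : Nat.card K = 3 * 3 ^ (2 * i) := by rw [hK, pow_succ, mul_comm]
  have hpos : 0 < 3 ^ (2 * i) := by positivity
  refine row_of_cus hOm Nat.prime_three hc hcusp hdual hirr hd (by omega) (by omega) hsc hτ (n := Nat.card K ^ 2 - 1) ?_ hE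
  intro h
  have h4 : 3 ∣ Nat.card K ^ 2 := by
    rw [h3]
    exact Dvd.dvd.pow (dvd_mul_right _ _) two_ne_zero
  have h5 : 1 ≤ Nat.card K ^ 2 := Nat.one_le_pow _ _ (by omega)
  omega

/-- **the row of the task** -/
theorem ocRow_psp_six' {K : Type} [Field K] [Fintype K] [CharP K 3] {a : ℕ} (hK : Fintype.card K = 3 ^ 3 ^ a) :
    OCRow 3 (PSp 3 K) :=
  ocRow_psp_six (m := 3 ^ a) ((by decide : Odd 3).pow) (by rw [Nat.card_eq_fintype_card, hK])

end Cfsg.Agent.H70.OC
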